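import Cfsg.Agent.H653.Sieve.Main
import Cfsg.Agent.H30.ConstVal
import Cfsg.Agent.H267.ThmA2

/-!
# The number of the character degrees and columns which are functions of the degree (helper954, for S4899)

`card_le` : integral columns `W i` which are functions of the degree, pairwise orthogonal and orthogonal to the degrees,
supported outside a set `Y`, and functions `v j` of the degree whose class functions are linearly independent on `Y`:
the number of the degrees is at least `#ι + 1 + #J`.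
`two_le` : `#ι + 2` degrees; `three_le` : `#ι + 3` degrees if the sum of the characters of degree `d` is not constant
on `Y`; `nonconst` : a criterion.
`prime_cols`, `ge_of_primes` : for the columns of primes dividing `|G|` exactly once.
-/

set_option autoImplicit false
set_option linter.unusedSectionVars false

open Cfsg Subgroup
open scoped ComplexConjugate

namespace Cfsg.Agent.H954.DR

open Cfsg.Agent.Characters.Core Cfsg.Agent.H653.Sieve Cfsg.Agent.H653.Sys

universe u

variable {G : Type u} [Group G] [Finite G] [Fintype (IrrCharacter G)]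

theorem deg_mem (χ : IrrCharacter G) : deg χ ∈ charDegrees G := ⟨χ, rfl⟩

/-- **The rank bound.** -/
theorem card_le {ι J : Type*} [Fintype ι] [Fintype J] (W : ι → IrrCharacter G → ℤ)
    (hf : ∀ i (χ χ' : IrrCharacter G), deg χ = deg χ' → W i χ = W i χ')
    (ho : ∀ i j, i ≠ j → ∑ χ : IrrCharacter G, W i χ * W j χ = 0)
    (hd : ∀ i, ∑ χ : IrrCharacter G, W i χ * (deg χ : ℤ) = 0)
    (hs : ∀ i, ∑ χ : IrrCharacter G, W i χ * W i χ ≠ 0)
    (Y : Set G) (h1 : (1 : G) ∉ Y)
    (hY : ∀ i, ∀ y ∈ Y, ∑ χ : IrrCharacter G, (W i χ : ℂ) * conj ((χ : G → ℂ) y) = 0)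
    (v : J → ℕ → ℂ) (hv : LinearIndependent ℂ
      (fun j : J => fun y : Y => ∑ χ : IrrCharacter G, v j (deg χ) * conj ((χ : G → ℂ) y))) :
    Fintype.card ι + 1 + Fintype.card J ≤ (charDegrees G).ncard := by
  classical
  have := Fintype.ofFinite G
  have hfin : (charDegrees G).Finite := by
    have h2 : charDegrees G = Set.range (fun χ : IrrCharacter G => deg χ) := by
      ext d
      constructor
      · rintro ⟨χ, rfl⟩
        exact ⟨χ, rfl⟩
      · rintro ⟨χ, rfl⟩
        exact ⟨χ, rfl⟩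
    rw [h2]
    exact Set.finite_range _
  have hfD : Fintype (charDegrees G) := hfin.fintype
  let pt : IrrCharacter G → charDegrees G := fun χ => ⟨deg χ, deg_mem χ⟩
  let T : (charDegrees G → ℂ) →ₗ[ℂ] (Y → ℂ) :=
    { toFun := fun f y => ∑ χ : IrrCharacter G, f (pt χ) * conj ((χ : G → ℂ) y)
      map_add' := fun f g => by
        funext y
        simp only [Pi.add_apply, add_mul, Finset.sum_add_distrib]
      map_smul' := fun c f => by
        funext y
        simp only [Pi.smul_apply, smul_eq_mul, RingHom.id_apply, Finset.mul_sum, mul_assoc] }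
  have hrn := LinearMap.finrank_range_add_finrank_ker T
  rw [Module.finrank_fintype_fun_eq_card] at hrn
  have hcard : Fintype.card (charDegrees G) = (charDegrees G).ncard := by
    rw [← Nat.card_eq_fintype_card, Nat.card_coe_set_eq]
  -- the range
  have hR : Fintype.card J ≤ Module.finrank ℂ (LinearMap.range T) := by
    let w : J → LinearMap.range T := fun j => ⟨T (fun d => v j d), ⟨_, rfl⟩⟩
    have hw : LinearIndependent ℂ w := by
      refine LinearIndependent.of_comp (LinearMap.range T).subtype ?_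
      exact hv
    exact hw.fintype_card_le_finrank
  -- the kernel
  have hsec : ∀ d : charDegrees G, ∃ χ : IrrCharacter G, deg χ = d := by
    rintro ⟨d, χ, rfl⟩
    exact ⟨χ, rfl⟩
  choose sec hsec using hsec
  have hsecW : ∀ i (χ : IrrCharacter G), W i (sec (pt χ)) = W i χ := fun i χ => hf i _ _ (hsec (pt χ))
  let f0 : Option ι → (charDegrees G → ℂ) := fun o d => match o with
    | none => ((d : ℕ) : ℂ)
    | some i => ((W i (sec d) : ℤ) : ℂ)
  have hker : ∀ o, f0 o ∈ LinearMap.ker T := by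
    intro o
    rw [LinearMap.mem_ker]
    funext y
    rcases o with _ | i
    · change ∑ χ : IrrCharacter G, ((deg χ : ℕ) : ℂ) * conj ((χ : G → ℂ) y) = 0
      have h2 : ∀ χ : IrrCharacter G, ((deg χ : ℕ) : ℂ) * conj ((χ : G → ℂ) y) =
          (χ : G → ℂ) 1 * conj ((χ : G → ℂ) y) := by
        intro χ
        rw [deg_cast]
      rw [Finset.sum_congr rfl fun χ _ => h2 χ, S0145.sum_irr_mul_conj, if_neg]
      intro h3
      have h4 : (y : G) = 1 := isConj_one_right.1 h3
      exact h1 (h4 ▸ y.2)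
    · change ∑ χ : IrrCharacter G, ((W i (sec (pt χ)) : ℤ) : ℂ) * conj ((χ : G → ℂ) y) = 0
      rw [Finset.sum_congr rfl fun χ _ => by rw [hsecW i χ]]
      exact hY i y y.2
  have hK : Fintype.card ι + 1 ≤ Module.finrank ℂ (LinearMap.ker T) := by
    let w : Option ι → LinearMap.ker T := fun o => ⟨f0 o, hker o⟩
    have hw : LinearIndependent ℂ w := by
      refine LinearIndependent.of_comp (LinearMap.ker T).subtype ?_
      rw [Fintype.linearIndependent_iff]
      intro g hg
      have h2 : ∀ χ : IrrCharacter G, g none * (deg χ : ℂ) + ∑ i, g (some i) * (W i χ : ℂ) = 0 := by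
        intro χ
        have h3 := congrFun hg (pt χ)
        rw [Fintype.sum_option] at h3
        simp only [Pi.add_apply, Pi.smul_apply, Finset.sum_apply, smul_eq_mul, Pi.zero_apply, Function.comp] at h3
        have h4 : ∀ i, ((LinearMap.ker T).subtype (w (some i))) (pt χ) = ((W i χ : ℤ) : ℂ) := by
          intro i
          change ((W i (sec (pt χ)) : ℤ) : ℂ) = _
          rw [hsecW]
        simp only [h4] at h3
        exact h3
      have hdC : ∀ i, ∑ χ : IrrCharacter G, (deg χ : ℂ) * (W i χ : ℂ) = 0 := by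
        intro i
        have h3 := hd i
        have h4 : ((∑ χ : IrrCharacter G, W i χ * (deg χ : ℤ) : ℤ) : ℂ) = 0 := by rw [h3]; simp
        push_cast at h4
        rw [← h4]
        exact Finset.sum_congr rfl fun χ _ => mul_comm _ _
      have hk : ∀ k, g (some k) = 0 := by
        intro k
        have h3 : ∑ χ : IrrCharacter G, (g none * (deg χ : ℂ) + ∑ i, g (some i) * (W i χ : ℂ)) * (W k χ : ℂ) = 0 := by
          refine Finset.sum_eq_zero fun χ _ => ?_
          rw [h2 χ, zero_mul]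
        simp only [add_mul, Finset.sum_add_distrib, Finset.sum_mul] at h3
        rw [Finset.sum_comm] at h3
        have h5 : ∑ χ : IrrCharacter G, g none * (deg χ : ℂ) * (W k χ : ℂ) = 0 := by
          simp only [mul_assoc]
          rw [← Finset.mul_sum, hdC, mul_zero]
        have h6 : ∀ i, i ≠ k → ∑ χ : IrrCharacter G, g (some i) * (W i χ : ℂ) * (W k χ : ℂ) = 0 := by
          intro i hi
          simp only [mul_assoc]
          rw [← Finset.mul_sum]
          have h7 : ((∑ χ : IrrCharacter G, W i χ * W k χ : ℤ) : ℂ) = 0 := by rw [ho i k hi]; simp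
          push_cast at h7
          rw [h7, mul_zero]
        rw [h5, zero_add, Finset.sum_eq_single k (fun i _ hi => h6 i hi) (fun h => absurd (Finset.mem_univ k) h)] at h3
        simp only [mul_assoc] at h3
        rw [← Finset.mul_sum, mul_eq_zero] at h3
        rcases h3 with h3 | h3
        · exact h3
        · exfalso
          apply hs k
          have h7 : ((∑ χ : IrrCharacter G, W k χ * W k χ : ℤ) : ℂ) = 0 := by push_cast; exact h3
          exact_mod_cast h7
      have h0 : g none = 0 := by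
        obtain ⟨χ₁, hχ₁⟩ : ∃ χ : IrrCharacter G, (χ : G → ℂ) = 1 := ⟨⟨1, isIrr_one⟩, rfl⟩
        have h3 := h2 χ₁
        simp only [hk, zero_mul, Finset.sum_const_zero, add_zero, mul_eq_zero] at h3
        rcases h3 with h3 | h3
        · exact h3
        · exfalso
          have h4 : (χ₁ : G → ℂ) 1 = (deg χ₁ : ℂ) := deg_cast χ₁
          rw [h3, hχ₁] at h4
          exact one_ne_zero h4
      intro o
      rcases o with _ | i
      · exact h0
      · exact hk i
    have := hw.fintype_card_le_finrank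
    rwa [Fintype.card_option] at this
  omega

/-- The sum of the irreducible characters of degree `d`. -/
noncomputable def psi (G : Type u) [Group G] [Fintype (IrrCharacter G)] (d : ℕ) (g : G) : ℂ :=
  open scoped Classical in ∑ χ ∈ Finset.univ.filter (fun χ : IrrCharacter G => deg χ = d), (χ : G → ℂ) g

theorem psi_eq (d : ℕ) (g : G) :
    psi G d g = ∑ χ : IrrCharacter G, (if deg χ = d then (1 : ℂ) else 0) * (χ : G → ℂ) g := by
  classical
  rw [psi, Finset.sum_filter]
  refine Finset.sum_congr (by rfl) fun χ _ => ?_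
  by_cases h : deg χ = d
  · simp [h]
  · simp [h]

theorem conj_psi (d : ℕ) (g : G) :
    conj (psi G d g) = ∑ χ : IrrCharacter G, (if deg χ = d then (1 : ℂ) else 0) * conj ((χ : G → ℂ) g) := by
  classical
  rw [psi_eq, map_sum]
  refine Finset.sum_congr rfl fun χ _ => ?_
  rw [map_mul]
  congr 1
  by_cases h : deg χ = d
  · simp [h]
  · simp [h]

theorem isCharacter_psi (d : ℕ) : IsCharacter G (psi G d) := by
  classical
  have := isCharacter_sum (G := G) (Finset.univ.filter (fun χ : IrrCharacter G => deg χ = d))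
    (f := fun χ => (χ : G → ℂ)) (fun χ _ => isIrr_isCharacter χ.2)
  have h2 : psi G d = ∑ χ ∈ Finset.univ.filter (fun χ : IrrCharacter G => deg χ = d), (χ : G → ℂ) := by
    funext g
    rw [Finset.sum_apply, psi]
  rw [h2]
  exact this

/-- The number of the irreducible characters of degree `d`. -/
noncomputable def mult (G : Type u) [Group G] [Fintype (IrrCharacter G)] (d : ℕ) : ℕ :=
  open scoped Classical in (Finset.univ.filter (fun χ : IrrCharacter G => deg χ = d)).card

theorem psi_one (d : ℕ) : psi G d 1 = ((d * mult G d : ℕ) : ℂ) := by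
  classical
  have h1 : ∀ χ ∈ Finset.univ.filter (fun χ : IrrCharacter G => deg χ = d), (χ : G → ℂ) 1 = (d : ℂ) := by
    intro χ hχ
    rw [deg_cast, (Finset.mem_filter.1 hχ).2]
  have h2 : psi G d 1 = ∑ χ ∈ Finset.univ.filter (fun χ : IrrCharacter G => deg χ = d), (χ : G → ℂ) 1 := by
    rw [psi]
  rw [h2, Finset.sum_congr rfl h1, Finset.sum_const, nsmul_eq_mul]
  have h3 : mult G d = (Finset.univ.filter (fun χ : IrrCharacter G => deg χ = d)).card := by
    rw [mult]
  rw [h3]
  push_cast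
  ring

theorem psi_triv [IsSimpleGroup G] (hG : ¬ (Nat.card G).Prime) (g : G) : psi G 1 g = 1 := by
  classical
  obtain ⟨χ₁, hχ₁⟩ : ∃ χ : IrrCharacter G, (χ : G → ℂ) = 1 := ⟨⟨1, isIrr_one⟩, rfl⟩
  have h2 : deg χ₁ = 1 := by
    have h4 : (χ₁ : G → ℂ) 1 = (deg χ₁ : ℂ) := deg_cast χ₁
    rw [hχ₁, Pi.one_apply] at h4
    exact_mod_cast h4.symm
  rw [psi_eq, Finset.sum_eq_single χ₁]
  · rw [if_pos h2, hχ₁]
    simp
  · intro χ _ hne
    rw [if_neg, zero_mul]
    intro h3
    exact hne (Subtype.ext ((one_of_deg hG χ h3).trans hχ₁.symm))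
  · intro h
    exact absurd (Finset.mem_univ _) h

section

variable {ι : Type*} [Fintype ι] (W : ι → IrrCharacter G → ℤ)

/-- The hypotheses on the columns. -/
structure Cols (W : ι → IrrCharacter G → ℤ) (Y : Set G) : Prop where
  fn : ∀ i (χ χ' : IrrCharacter G), deg χ = deg χ' → W i χ = W i χ'
  orth : ∀ i j, i ≠ j → ∑ χ : IrrCharacter G, W i χ * W j χ = 0
  deg : ∀ i, ∑ χ : IrrCharacter G, W i χ * (deg χ : ℤ) = 0
  ne : ∀ i, ∑ χ : IrrCharacter G, W i χ * W i χ ≠ 0
  one : (1 : G) ∉ Y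
  van : ∀ i, ∀ y ∈ Y, ∑ χ : IrrCharacter G, (W i χ : ℂ) * conj ((χ : G → ℂ) y) = 0

variable {W} {Y : Set G}

/-- **At least `#ι + 2` degrees.** -/
theorem Cols.two_le [IsSimpleGroup G] (hG : ¬ (Nat.card G).Prime) (h : Cols W Y) (hY : Y.Nonempty) :
    Fintype.card ι + 2 ≤ (charDegrees G).ncard := by
  have h1 := card_le W h.fn h.orth h.deg h.ne Y h.one h.van (J := Unit) (fun _ d => if d = 1 then 1 else 0) (by
    rw [linearIndependent_unique_iff]
    obtain ⟨y, hy⟩ := hY
    intro h0
    have h1 := congrFun h0 ⟨y, hy⟩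
    rw [← conj_psi, psi_triv hG] at h1
    simp at h1)
  rw [Fintype.card_unit] at h1
  exact h1

/-- **At least `#ι + 3` degrees.** -/
theorem Cols.three_le [IsSimpleGroup G] (hG : ¬ (Nat.card G).Prime) (h : Cols W Y) {d : ℕ} {y y' : G}
    (hy : y ∈ Y) (hy' : y' ∈ Y) (hne : psi G d y ≠ psi G d y') :
    Fintype.card ι + 3 ≤ (charDegrees G).ncard := by
  have h1 := card_le W h.fn h.orth h.deg h.ne Y h.one h.van (J := Bool)
      (fun b e => if e = (bif b then d else 1) then 1 else 0) (by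
    rw [Fintype.linearIndependent_iff]
    intro g hg
    have key : ∀ z ∈ Y, g true * conj (psi G d z) + g false = 0 := by
      intro z hz
      have h1 := congrFun hg ⟨z, hz⟩
      rw [Fintype.sum_bool] at h1
      simp only [Pi.add_apply, Pi.smul_apply, smul_eq_mul, Pi.zero_apply, cond_true, cond_false] at h1
      rw [← conj_psi, ← conj_psi, psi_triv hG, map_one, mul_one] at h1
      exact h1
    have h2 := key y hy
    have h3 := key y' hy'
    have h4 : g true * (conj (psi G d y) - conj (psi G d y')) = 0 := by linear_combination h2 - h3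
    rw [mul_eq_zero] at h4
    have h5 : g true = 0 := by
      rcases h4 with h4 | h4
      · exact h4
      · exfalso
        apply hne
        rw [sub_eq_zero] at h4
        exact (starRingEnd ℂ).injective h4
    rw [h5, zero_mul, zero_add] at h2
    intro b
    cases b
    · exact h2
    · exact h5)
  rw [Fintype.card_bool] at h1
  exact h1

end

/-- **A criterion for `psi G d` to be nonconstant.** -/
theorem nonconst [IsSimpleGroup G] {d : ℕ} (hd : d ∈ charDegrees G) (hd1 : d ≠ 1)
    (Q : Subgroup G) (hQ : 2 * (d * mult G d) < Nat.card Q) {Y : Set G} (hY : ∀ y ∈ Q, y ≠ 1 → y ∈ Y) :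
    ∃ y ∈ Y, ∃ y' ∈ Y, psi G d y ≠ psi G d y' := by
  classical
  by_contra hcon
  push Not at hcon
  have hQ1 : Q ≠ ⊥ := by
    rintro rfl
    rw [Subgroup.card_bot] at hQ
    obtain ⟨χ, hχ⟩ := hd
    have h1 : 0 < d := by rw [← hχ]; exact Blocks.Basic.charDegree_pos χ.2
    have h2 : 0 < mult G d := by
      rw [mult, Finset.card_pos]
      exact ⟨χ, Finset.mem_filter.2 ⟨Finset.mem_univ _, hχ⟩⟩
    have := Nat.mul_pos h1 h2
    omega
  obtain ⟨⟨x, hxQ⟩, hx1'⟩ := Subgroup.ne_bot_iff_exists_ne_one.1 hQ1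
  have hx1 : x ≠ 1 := fun h => hx1' (Subtype.ext h)
  have hxY : x ∈ Y := hY x hxQ hx1
  obtain ⟨z, hz, hz2⟩ := H30.ConstVal.exists_int (isCharacter_psi (G := G) d) Q hQ1 (psi G d x)
    (fun y hy hy1 => hcon y (hY y hy hy1) x hxY) (d * mult G d) (psi_one d)
  set X : Finset (IrrCharacter G) := Finset.univ.filter (fun χ : IrrCharacter G => deg χ = d) with hX
  have hmult : mult G d = X.card := by
    rw [mult]
  have hpsiX : ∀ g, psi G d g = ∑ χ ∈ X, (χ : G → ℂ) g := by
    intro g
    rw [psi]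
  -- the norm
  have hnorm : ∀ χ ∈ X, ‖(χ : G → ℂ) x‖ ≤ (d : ℝ) := by
    intro χ hχ
    have h2 := H267.ThmA.norm_apply_le (isIrr_isCharacter χ.2) (deg_cast χ) x
    rwa [(Finset.mem_filter.1 hχ).2] at h2
  have hpsi : ‖psi G d x‖ ≤ ((d * mult G d : ℕ) : ℝ) := by
    rw [hpsiX]
    refine (norm_sum_le _ _).trans ?_
    refine (Finset.sum_le_sum hnorm).trans ?_
    rw [Finset.sum_const, nsmul_eq_mul, hmult]
    push_cast
    rw [mul_comm]
  have hzD : z = ((d * mult G d : ℕ) : ℤ) := by
    rcases hz2 with h | h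
    · exact h
    · exfalso
      rw [hz] at hpsi
      have h6 : ‖(z : ℂ)‖ = |(z : ℝ)| := by
        rw [show (z : ℂ) = ((z : ℝ) : ℂ) by push_cast; rfl, Complex.norm_real, Real.norm_eq_abs]
      rw [h6] at hpsi
      have h7 : -((d * mult G d : ℕ) : ℝ) ≤ (z : ℝ) := (abs_le.1 hpsi).1
      have h8 : -((d * mult G d : ℕ) : ℤ) ≤ z := by exact_mod_cast h7
      omega
  have hsum : ∑ χ ∈ X, ((d : ℝ) - ((χ : G → ℂ) x).re) = 0 := by
    rw [Finset.sum_sub_distrib, Finset.sum_const, nsmul_eq_mul, ← Complex.re_sum, ← hpsiX, hz, hzD, hmult]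
    push_cast
    simp
    ring
  have hre : ∀ χ ∈ X, (d : ℝ) - ((χ : G → ℂ) x).re = 0 := by
    rw [Finset.sum_eq_zero_iff_of_nonneg] at hsum
    · exact hsum
    · intro χ hχ
      have h2 := hnorm χ hχ
      have h3 := Complex.re_le_norm ((χ : G → ℂ) x)
      linarith
  obtain ⟨χ, hχ⟩ := hd
  have hχX : χ ∈ X := Finset.mem_filter.2 ⟨Finset.mem_univ _, hχ⟩
  have h3 := hre χ hχX
  have h4 := hnorm χ hχX
  have h5 : (χ : G → ℂ) x = (χ : G → ℂ) 1 := by
    rw [deg_cast, show deg χ = d from hχ]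
    have h6 : ((χ : G → ℂ) x).re = d := by linarith
    have h7 : ((χ : G → ℂ) x).im = 0 := by
      have h8 : ‖(χ : G → ℂ) x‖ ^ 2 ≤ (d : ℝ) ^ 2 := pow_le_pow_left₀ (norm_nonneg _) h4 2
      rw [← Complex.normSq_eq_norm_sq, Complex.normSq_apply, h6] at h8
      nlinarith [sq_nonneg ((χ : G → ℂ) x).im]
    apply Complex.ext
    · rw [h6]; simp
    · rw [h7]; simp
  have h6 := H30.ConstVal.eq_one_of_apply_eq χ.2 hx1 h5
  apply hd1
  rw [← hχ]
  change deg χ = 1
  have h7 : (χ : G → ℂ) 1 = (deg χ : ℂ) := deg_cast χ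
  rw [h6, Pi.one_apply] at h7
  exact_mod_cast h7.symm

/-! ### Prime columns -/

/-- The list of values is a function of the residue. -/
def fnl (wl : List (ℕ × ℤ)) : Bool := wl.all fun a => wl.all fun b => !(Nat.beq a.1 b.1) || decide (a.2 = b.2)

theorem fnl_spec {wl : List (ℕ × ℤ)} (h : fnl wl = true) {r : ℕ} {w w' : ℤ} (h1 : (r, w) ∈ wl) (h2 : (r, w') ∈ wl) :
    w = w' := by
  rw [fnl, List.all_eq_true] at h
  have h3 := h _ h1
  rw [List.all_eq_true] at h3
  have h4 := h3 _ h2
  simpa [Nat.beq_refl] using h4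

theorem mem_of_pick {r : ℕ} {v : List ℤ} : ∀ {L : List (ℕ × ℤ)}, v ∈ pick r L → ∃ w, v = [w] ∧ (r, w) ∈ L
  | [], h => by simp [pick] at h
  | (a, w) :: L, h => by
    rw [pick] at h
    cases hb : Nat.beq r a
    · rw [hb, cond_false] at h
      obtain ⟨w', h1, h2⟩ := mem_of_pick h
      exact ⟨w', h1, List.mem_cons_of_mem _ h2⟩
    · rw [hb, cond_true] at h
      have h1 := Nat.eq_of_beq_eq_true hb
      rcases List.mem_cons.1 h with h | h
      · exact ⟨w, h, by rw [h1]; exact List.mem_cons_self⟩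
      · obtain ⟨w', h1, h2⟩ := mem_of_pick h
        exact ⟨w', h1, List.mem_cons_of_mem _ h2⟩

/-- The column of one prime. -/
theorem exists_prime_col [IsSimpleGroup G] {N : ℕ} (hN : Nat.card G = N) (hG : ¬ IsMulCommutative G) {D : PD}
    (hD : D.ok N = true) (hx : D.Cent G) :
    ∃ W : IrrCharacter G → ℤ, (∀ χ, (deg χ % D.p, W χ) ∈ D.wl) ∧
      H653.Sys.ColOK (fun g : G => orderOf g) ⟨[D.p], D.s, D.c, D.b, D.t⟩ W := by
  simp only [PD.ok, Bool.and_eq_true, decide_eq_true_eq] at hD
  obtain ⟨⟨hp, hn⟩, hs⟩ := hD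
  have := Fact.mk hp
  obtain ⟨x, hx1, hx2⟩ := hx
  obtain ⟨W, hW⟩ := primeFam_ok hG hN hx1 hx2 D.e D.t D.wl D.c D.b hn D.s D.t hs rfl
  refine ⟨W, fun χ => ?_, ?_⟩
  · obtain ⟨w, h1, h2⟩ := mem_of_pick (hW.mem χ)
    simp only [List.map_cons, List.map_nil, List.cons.injEq, and_true] at h1
    rw [h1]
    exact h2
  · have h1 := hW.cols
    cases h1 with
    | cons h1 _ => exact h1

theorem ColOK.van {lab : G → ℕ} (hlab : ∀ g h : G, IsConj g h → lab g = lab h) {c : Col} {W : IrrCharacter G → ℤ}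
    (h : H653.Sys.ColOK lab c W) {y : G} (hy : lab y ∉ c.ord) :
    ∑ χ : IrrCharacter G, (W χ : ℂ) * conj ((χ : G → ℂ) y) = 0 := by
  classical
  have := Fintype.ofFinite G
  obtain ⟨S, f, hf, hS⟩ := h.supp
  have h1 : ∀ χ : IrrCharacter G, (W χ : ℂ) * conj ((χ : G → ℂ) y) =
      ∑ g ∈ S, f g * ((χ : G → ℂ) g * conj ((χ : G → ℂ) y)) := by
    intro χ
    rw [hf, Finset.sum_mul]
    exact Finset.sum_congr rfl fun g _ => by ring
  rw [Finset.sum_congr rfl fun χ _ => h1 χ, Finset.sum_comm, Finset.sum_eq_zero]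
  intro g hg
  rw [← Finset.mul_sum, S0145.sum_irr_mul_conj, if_neg, mul_zero]
  intro hc
  exact hy (by rw [← hlab g y hc]; exact hS g hg)

/-- the elements outside the columns -/
def outs (G : Type u) [Group G] (ps : List ℕ) : Set G := {y | y ≠ 1 ∧ orderOf y ∉ ps}

/-- all the data are functional and the primes are different -/
def okAll (N : ℕ) (Ds : List PD) : Bool :=
  (Ds.all fun D => PD.ok N D && fnl D.wl && decide (0 < D.s)) && decide ((Ds.map PD.p).Nodup) &&
    !((Ds.map PD.p).contains 1)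

theorem exists_cols [IsSimpleGroup G] {N : ℕ} (hN : Nat.card G = N) (hG : ¬ IsMulCommutative G) {Ds : List PD}
    (hD : okAll N Ds = true) (hx : ∀ D ∈ Ds, D.Cent G) :
    ∃ W : Fin Ds.length → IrrCharacter G → ℤ, Cols W (outs G (Ds.map PD.p)) ∧
      (∀ i χ, (deg χ % (Ds.get i).p, W i χ) ∈ (Ds.get i).wl) ∧
      ∀ i, ∑ χ : IrrCharacter G, W i χ * W i χ = (Ds.get i).s := by
  simp only [okAll, Bool.and_eq_true, List.all_eq_true, decide_eq_true_eq, Bool.not_eq_true'] at hD
  obtain ⟨⟨h1, h2⟩, h3⟩ := hD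
  have hex : ∀ i : Fin Ds.length, ∃ W : IrrCharacter G → ℤ, (∀ χ, (deg χ % (Ds.get i).p, W χ) ∈ (Ds.get i).wl) ∧
      H653.Sys.ColOK (fun g : G => orderOf g) ⟨[(Ds.get i).p], (Ds.get i).s, (Ds.get i).c, (Ds.get i).b, (Ds.get i).t⟩ W :=
    fun i => exists_prime_col hN hG (h1 _ (List.get_mem _ _)).1.1 (hx _ (List.get_mem _ _))
  choose W hW1 hW2 using hex
  have hp1 : ∀ i : Fin Ds.length, (Ds.get i).p ≠ 1 := by
    intro i hi
    have h4 : (Ds.map PD.p).contains 1 = true := by
      rw [List.contains_iff_mem, List.mem_map]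
      exact ⟨Ds.get i, List.get_mem _ _, hi⟩
    rw [h3] at h4
    exact Bool.false_ne_true h4
  have hne : ∀ i j : Fin Ds.length, i ≠ j → (Ds.get i).p ≠ (Ds.get j).p := by
    intro i j hij h
    apply hij
    have h4 := List.nodup_iff_injective_get.1 h2
    have h5 : (Ds.map PD.p).get (i.cast (List.length_map PD.p).symm) =
        (Ds.map PD.p).get (j.cast (List.length_map PD.p).symm) := by
      simpa using h
    have h6 := h4 h5
    simpa [Fin.ext_iff] using h6
  refine ⟨W, ⟨?_, ?_, ?_, ?_, fun h => h.1 rfl, ?_⟩, hW1, fun i => (hW2 i).sq⟩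
  · intro i χ χ' h
    have h4 := hW1 i χ
    have h5 := hW1 i χ'
    rw [h] at h4
    exact fnl_spec (h1 _ (List.get_mem _ _)).1.2 h4 h5
  · intro i j hij
    refine ColOK.orth orderOf_conj (hW2 i) (hW2 j) ?_
    rw [disj, List.all_eq_true]
    intro x hx
    rw [List.mem_singleton.1 hx]
    simpa using hne i j hij
  · intro i
    refine ColOK.deg orderOf_conj orderOf_one (hW2 i) ?_
    simpa using (hp1 i).symm
  · intro i
    rw [(hW2 i).sq]
    exact (h1 _ (List.get_mem _ _)).2.ne'
  · intro i y hy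
    refine ColOK.van orderOf_conj (hW2 i) ?_
    rw [List.mem_singleton]
    intro h
    apply hy.2
    rw [List.mem_map]
    exact ⟨Ds.get i, List.get_mem _ _, h.symm⟩

/-- the column of `D` does not vanish at the characters of degree `d` -/
def hitD (d : ℕ) (D : PD) : Bool := D.wl.all fun a => !(Nat.beq a.1 (d % D.p)) || !(decide (a.2 = 0))

theorem mult_le {D : PD} {W : IrrCharacter G → ℤ} (h1 : ∀ χ, (deg χ % D.p, W χ) ∈ D.wl)
    (h2 : ∑ χ : IrrCharacter G, W χ * W χ = D.s) {d : ℕ} (hd : hitD d D = true) : (mult G d : ℤ) ≤ D.s := by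
  classical
  rw [hitD, List.all_eq_true] at hd
  have h3 : mult G d = (Finset.univ.filter (fun χ : IrrCharacter G => deg χ = d)).card := by
    rw [mult]
  rw [h3, ← h2, Finset.card_eq_sum_ones, Finset.sum_filter]
  push_cast
  refine Finset.sum_le_sum fun χ _ => ?_
  by_cases h : deg χ = d
  · rw [if_pos h]
    have h4 := hd _ (h1 χ)
    rw [h] at h4
    have h5 : W χ ≠ 0 := by simpa [Nat.beq_refl] using h4
    have h6 : 0 < W χ * W χ := mul_self_pos.2 h5
    omega
  · rw [if_neg h]
    exact mul_self_nonneg _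

theorem not_prime_card [IsSimpleGroup G] {N : ℕ} (hN : Nat.card G = N) (hnp : ¬ N.Prime) :
    ¬ (Nat.card G).Prime ∧ ¬ IsMulCommutative G := by
  refine ⟨by rwa [hN], fun h => ?_⟩
  let _ : CommGroup G := { (inferInstance : Group G) with mul_comm := fun a b => h.is_comm.comm a b }
  have h1 : (Nat.card G).Prime := IsSimpleGroup.prime_card
  rw [hN] at h1
  exact hnp h1

/-- **At least `#primes + 2` degrees.** -/
theorem ge_two_of_primes [IsSimpleGroup G] {N : ℕ} (hN : Nat.card G = N) (hnp : ¬ N.Prime) {Ds : List PD}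
    (hD : okAll N Ds = true) (hx : ∀ D ∈ Ds, D.Cent G) {l : ℕ} (hl : l.Prime) (hlN : l ∣ N)
    (hlD : l ∉ Ds.map PD.p) : Ds.length + 2 ≤ (charDegrees G).ncard := by
  obtain ⟨hG1, hG2⟩ := not_prime_card hN hnp
  obtain ⟨W, hW, -, -⟩ := exists_cols hN hG2 hD hx
  have := Fact.mk hl
  obtain ⟨y, hy⟩ := exists_prime_orderOf_dvd_card' (G := G) l (by rwa [hN])
  have h := hW.two_le hG1 ⟨y, by
    rintro rfl
    rw [orderOf_one] at hy
    exact hl.one_lt.ne hy, by rwa [hy]⟩
  rwa [Fintype.card_fin] at h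

/-- **At least `#primes + 3` degrees.** -/
theorem ge_three_of_primes [IsSimpleGroup G] {N : ℕ} (hN : Nat.card G = N) (hnp : ¬ N.Prime) {Ds : List PD}
    (hD : okAll N Ds = true) (hx : ∀ D ∈ Ds, D.Cent G) {d : ℕ} (hd : d ∈ charDegrees G) (hd1 : d ≠ 1)
    {l a : ℕ} (hl : l.Prime) (hlN : l ^ a ∣ N) (hlD : l ∉ Ds.map PD.p)
    (hex : (Ds.any fun D => hitD d D && decide (2 * ((d : ℤ) * D.s) < (l ^ a : ℕ))) = true) :
    Ds.length + 3 ≤ (charDegrees G).ncard := by
  obtain ⟨hG1, hG2⟩ := not_prime_card hN hnp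
  obtain ⟨W, hW, hW1, hW2⟩ := exists_cols hN hG2 hD hx
  have hpr : ∀ q ∈ Ds.map PD.p, q.Prime := by
    intro q hq
    obtain ⟨D, hDm, rfl⟩ := List.mem_map.1 hq
    simp only [okAll, Bool.and_eq_true, List.all_eq_true, decide_eq_true_eq] at hD
    have h4 := (hD.1.1 D hDm).1.1
    simp only [PD.ok, Bool.and_eq_true, decide_eq_true_eq] at h4
    exact h4.1.1
  have := Fact.mk hl
  obtain ⟨Q, hQ⟩ := Sylow.exists_subgroup_card_pow_prime (G := G) l (n := a) (by rwa [hN])
  rw [List.any_eq_true] at hex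
  obtain ⟨D, hDm, hD2⟩ := hex
  rw [Bool.and_eq_true, decide_eq_true_eq] at hD2
  obtain ⟨i, hi⟩ := List.get_of_mem hDm
  have hm : (mult G d : ℤ) ≤ D.s := by
    have h1 := hW1 i
    have h2 := hW2 i
    rw [hi] at h1 h2
    exact mult_le h1 h2 hD2.1
  obtain ⟨y, hy, y', hy', hne⟩ := nonconst (Y := outs G (Ds.map PD.p)) hd hd1 Q (by
    rw [hQ]
    have h3 : ((2 * (d * mult G d) : ℕ) : ℤ) < (l ^ a : ℕ) := by
      refine lt_of_le_of_lt ?_ hD2.2
      push_cast
      have h4 : (0 : ℤ) ≤ d := by positivity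
      nlinarith
    exact_mod_cast h3) (by
    intro y hy hy1
    refine ⟨hy1, fun hmem => ?_⟩
    have h4 := hpr _ hmem
    have h5 : orderOf y ∣ l ^ a := by
      have h6 := orderOf_dvd_natCard (⟨y, hy⟩ : Q)
      rw [hQ] at h6
      rwa [← Subgroup.orderOf_coe] at h6
    have h6 : orderOf y ∣ l := h4.dvd_of_dvd_pow h5
    rw [(Nat.prime_dvd_prime_iff_eq h4 hl).1 h6] at hmem
    exact hlD hmem)
  have h := hW.three_le hG1 hy hy' hne
  rwa [Fintype.card_fin] at h

end Cfsg.Agent.H954.DR
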